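import Mathlib
import Cfsg.Prelude.Def_BaumannBlocks
import Cfsg.Prelude.Def_CaseTheorems
import Cfsg.Agent.Lib.BlockX.RawDef
import Cfsg.Agent.Lib.PGroup.BaumannSect

/-! Vocabulary for S2986: subnormal Baumann blocks. -/

namespace Cfsg.Agent.Lib.SubBlock
open Subgroup Cfsg
open scoped commutatorElement
open Cfsg.Agent.Lib.PGroup.BaumannSect Cfsg.Agent.Lib.BlockX

variable {G : Type*} [Group G]

abbrev QE (p : ℕ) (E : Subgroup G) : Subgroup G := pCoreOf p E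
abbrev WE (p : ℕ) (E : Subgroup G) : Subgroup G := omegaOneCenter p (pCoreOf p E)
abbrev ZE (p : ℕ) (E : Subgroup G) : Subgroup G := omegaOneCenter p (pCoreOf p E) ⊓ centralizer (E : Set G)
abbrev VE (p : ℕ) (E : Subgroup G) : Subgroup G := ⁅omegaOneCenter p (pCoreOf p E), E⁆
abbrev YG (p : ℕ) (G : Type*) [Group G] : Subgroup G := pCore p G
abbrev OG (p : ℕ) (G : Type*) [Group G] : Subgroup G := omegaOneCenter p (pCore p G)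

/-- The facts about a subnormal block of a group of characteristic `p`. -/
structure SB (p : ℕ) (E : Subgroup G) : Prop where
  hG : centralizer (pCore p G : Set G) ≤ pCore p G
  hbl : ∃ T : Sylow p G, IsBaumannBlock p (T : Subgroup G) E
  hsub : E.IsSubnormal
  hres : pResidualOf p E = E
  hresY : pResidualOf p (E ⊔ pCore p G) = E
  hYN : pCore p G ≤ normalizer (E : Set G)
  hQE : QE p E ≤ E
  hQY : QE p E ≤ pCore p G
  hYE : ∀ y ∈ pCore p G, ∀ e ∈ E, ⁅y, e⁆ ∈ QE p E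
  hVO : VE p E ≤ OG p G
  hWO : WE p E ≤ OG p G
  hOE : ∀ w ∈ OG p G, ∀ e ∈ E, ⁅w, e⁆ ∈ VE p E
  hVV : ⁅VE p E, E⁆ = VE p E
  hirr : IrrSect E (WE p E) (ZE p E)
  hCV : ∀ e ∈ E, (∀ v ∈ VE p E, e * v = v * e) → e ∈ QE p E
  hcase : (QE p E = WE p E ∧ WE p E = VE p E) ∨ (∃ _ : p = 3, ∃ (T : Sylow p G) (F₀ : Type) (_ : Field F₀) (_ : Fintype F₀) (_ : CharP F₀ 3),
    Nonempty (Raw F₀ E (QE p E) (WE p E) (VE p E) (ZE p E) (pCore p G) (OG p G) (baumannSubgroupOf p (T : Subgroup G))))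

/-- `E / O_p(E)` is quasisimple and contains elements of order `p`. -/
structure Perf (p : ℕ) (E : Subgroup G) : Prop where
  hqs : IsQuasisimple (↥E ⧸ pCore p ↥E)
  hpel : ∃ f ∈ E, f ∉ QE p E ∧ ∃ k : ℕ, f ^ (p ^ k) = 1

/-- `E / O_p(E)` is a small `r`-group: `C₃` for `p = 2`, `Q₈` for `p = 3`; and `|V| = p²`. -/
structure Small (p r : ℕ) (E : Subgroup G) : Prop where
  hpr : (p = 2 ∧ r = 3) ∨ (p = 3 ∧ r = 2)
  hrel : ∀ e ∈ E, ∃ k : ℕ, e ^ (r ^ k) ∈ QE p E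
  hcard : Nat.card (VE p E) = p ^ 2
  hVirr : ∀ X : Subgroup G, X ≤ VE p E → E ≤ normalizer (X : Set G) → X = ⊥ ∨ X = VE p E
  htrans : ∀ v ∈ VE p E, ∀ w ∈ VE p E, v ≠ 1 → w ≠ 1 → ∃ e ∈ E, e * v * e⁻¹ = w
  hfpf : ∀ e ∈ E, (∀ v ∈ VE p E, e * v * e⁻¹ = v) ∨ (∀ v ∈ VE p E, e * v * e⁻¹ = v → v = 1)
  hq8 : p = 3 → ∃ s ∈ E, (∀ v ∈ VE p E, s * v * s⁻¹ = v⁻¹) ∧ ∀ e ∈ E,
    (∀ v ∈ VE p E, e * v * e⁻¹ = v) ∨ (∀ v ∈ VE p E, e * v * e⁻¹ = v⁻¹) ∨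
      (∀ v ∈ VE p E, e * (e * v * e⁻¹) * e⁻¹ = v⁻¹)
  hnc : p = 3 → ∃ x ∈ E, ∃ y ∈ E, ∃ v ∈ VE p E, x * (y * v * y⁻¹) * x⁻¹ ≠ y * (x * v * x⁻¹) * y⁻¹

/-- `F` centralizes `V_E` and `E` centralizes `V_F`. -/
def Cross (p : ℕ) (E F : Subgroup G) : Prop :=
  (∀ v ∈ VE p E, ∀ f ∈ F, f * v = v * f) ∧ (∀ v ∈ VE p F, ∀ e ∈ E, e * v = v * e)

/-- The subgroup of `G` whose image in `G / Y` is `O_r(G / Y)`: elements which are `r`-elements modulo `Y`. -/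
noncomputable def RMod (p r : ℕ) (G : Type*) [Group G] : Subgroup G :=
  (pCore r (G ⧸ pCore p G)).comap (QuotientGroup.mk' (pCore p G))

end Cfsg.Agent.Lib.SubBlock
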